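import Cfsg.Agent.Lib.ToddCox.Glue
set_option autoImplicit false
set_option maxRecDepth 100000
namespace Cfsg.Agent.Lib.ToddCox.L37C6
def E_0 : ℕ := 0x30000000800000800000030000010400000c00000c1000001000000040000080000081000000000000000000040000040000000
end Cfsg.Agent.Lib.ToddCox.L37C6
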